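import Mathlib
import Cfsg.Agent.SUPres77.Glue
import Cfsg.Agent.SLPres77.Amalgam
import Cfsg.Agent.SLPres77.Alt
import Cfsg.Agent.AltPres54.Small

/-!
Presentations of `SU_n` from one of `A_n`, one of `SU_3` and two generators of `SU_2`, given that
chains of windows extend (`WindowsExtend`).

* `sun_pres`: the amalgam;
* `sun_pres_six`: six generators, at most `38` relations for `6 ≤ n` (`35` for `n = 4, 5`).
-/

set_option autoImplicit false

namespace CfsgLib.SUPres77

open Cfsg CfsgLib.Unitary CfsgLib.Phan CfsgLib.AltPres54 Equiv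
open CfsgLib.SLPres77 (pt pt3 pt_inj pt_ne pt3_inj exists_alt_two upper mem_upper mem_altOn_upper
  genPair exists_pres_amalg exists_pres_pad alt_four_pres alt_five_pres)

variable {F : Type*} [Field F] [Fintype F] {q n : ℕ} (hF : Fintype.card F = q ^ 2)
include hF

/-- Chains of windows of three coordinates with commuting distant pairs extend to `SU_n`. -/
def WindowsExtend (n : ℕ) : Prop :=
  ∀ {G : Type} [Group G] (V : ℕ → ↥(SU 3 F q) →* G),
    (∀ a, a + 4 ≤ n → ∀ u : ↥(SU 2 F q), V a (emb hF (win 1 (show 1 + 2 ≤ 3 by omega)) u)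
      = V (a + 1) (emb hF (win 0 (show 0 + 2 ≤ 3 by omega)) u)) →
    (∀ a b, a + 1 ≤ b → b + 3 ≤ n → ∀ x y : ↥(SU 2 F q),
      Commute (V a (emb hF (win 0 (show 0 + 2 ≤ 3 by omega)) x))
        (V b (emb hF (win 1 (show 1 + 2 ≤ 3 by omega)) y))) →
    ∃ f : ↥(SU n F q) →* G, ∀ b (hb : b + 3 ≤ n) (x : ↥(SU 3 F q)),
      f (emb hF (win b hb) x) = V b x

/-- Two subgroups with commuting generators commute. -/
theorem commute_of_gens {S H : Type*} [Group S] [Group H] (f g : S →* H) (T : Set S)
    (hT : Subgroup.closure T = ⊤) (h : ∀ x ∈ T, ∀ y ∈ T, Commute (f x) (g y)) (x y : S) :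
    Commute (f x) (g y) := by
  have h1 : ∀ y ∈ T, ∀ x, Commute (f x) (g y) := fun y hy x => by
    have hle : Subgroup.closure T ≤ (Subgroup.centralizer {g y}).comap f :=
      (Subgroup.closure_le _).2 fun z hz =>
        Subgroup.mem_centralizer_singleton_iff.2 (h z hz y hy).eq
    exact Subgroup.mem_centralizer_singleton_iff.1 (hle (hT ▸ Subgroup.mem_top x))
  have hle : Subgroup.closure T ≤ (Subgroup.centralizer {f x}).comap g :=
    (Subgroup.closure_le _).2 fun z hz =>
      Subgroup.mem_centralizer_singleton_iff.2 (h1 z hz x).symm.eq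
  exact Commute.symm (Subgroup.mem_centralizer_singleton_iff.1 (hle (hT ▸ Subgroup.mem_top y)))

/-- The model satisfies the centraliser and flip relations. -/
theorem model_corner (hn : 4 ≤ n) (z : alternatingGroup (Fin n)) (k : Fin 2 ↪ Fin 2)
    (h : ∀ i, z.1 (e3 hn (w01 i)) = e3 hn (w01 (k i))) (x : ↥(SU 2 F q)) :
    altToSU n F q z * emb hF (e3 hn) (emb hF w01 x) * (altToSU n F q z)⁻¹ =
      emb hF (e3 hn) (emb hF w01 (emb hF k x)) := by
  rw [emb_trans, altToSU_conj_emb, emb_trans, emb_trans]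
  exact congrArg (fun w => emb hF w x) (Function.Embedding.ext h)

/-- Gluing presentations of `A_n` and `SU_3`. -/
theorem sun_pres {m k : ℕ} (hn : 4 ≤ n) (hW : WindowsExtend hF n)
    (RA : Finset (FreeGroup (Fin m)))
    (eA : PresentedGroup (↑RA : Set (FreeGroup (Fin m))) ≃* alternatingGroup (Fin n))
    (RB : Finset (FreeGroup (Fin k)))
    (eB : PresentedGroup (↑RB : Set (FreeGroup (Fin k))) ≃* ↥(SU 3 F q))
    (g₁ g₂ : ↥(SU 2 F q)) (hg : Subgroup.closure ({g₁, g₂} : Set ↥(SU 2 F q)) = ⊤)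
    (e : alternatingGroup (Fin n)) (he0 : e.1 (pt hn 0) = pt hn 1) (he1 : e.1 (pt hn 1) = pt hn 0)
    (Z : List (alternatingGroup (Fin n)))
    (hZfix : ∀ a ∈ Z, a.1 (pt hn 0) = pt hn 0 ∧ a.1 (pt hn 1) = pt hn 1)
    (hZgen : ∀ z : alternatingGroup (Fin n), z.1 (pt hn 0) = pt hn 0 → z.1 (pt hn 1) = pt hn 1 →
      z ∈ Subgroup.closure ({a | a ∈ Z} ∪ (fun a => e⁻¹ * a * e) '' {a | a ∈ Z})) :
    ∃ R : Finset (FreeGroup (Fin (m + k))),
      R.card ≤ RA.card + RB.card + (1 + 2 * Z.length + 2 + 3) ∧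
      Nonempty (PresentedGroup (↑R : Set (FreeGroup (Fin (m + k)))) ≃* ↥(SU n F q)) := by
  classical
  -- the involution exchanging the first two pairs
  let τ : alternatingGroup (Fin n) := ⟨swap (pt hn 0) (pt hn 2) * swap (pt hn 1) (pt hn 3), by
    rw [Perm.mem_alternatingGroup, map_mul, Perm.sign_swap (pt_ne hn (by decide)),
      Perm.sign_swap (pt_ne hn (by decide))]; rfl⟩
  have hτ : ∀ i : Fin 4, τ.1 (pt hn i) = pt hn (swap (0 : Fin 4) 2 (swap (1 : Fin 4) 3 i)) := by
    intro i
    show swap _ _ (swap _ _ _) = _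
    rw [(pt_inj hn).swap_apply, (pt_inj hn).swap_apply]
  have hτ2 : τ * τ = 1 := by
    refine Subtype.ext (Equiv.ext fun x => ?_)
    show swap _ _ (swap _ _ (swap _ _ (swap _ _ x))) = x
    by_cases hx : ∃ i, pt hn i = x
    · obtain ⟨i, rfl⟩ := hx
      rw [(pt_inj hn).swap_apply, (pt_inj hn).swap_apply, (pt_inj hn).swap_apply,
        (pt_inj hn).swap_apply]
      congr 1; revert i; decide
    · push Not at hx
      have hs : ∀ i j : Fin 4, swap (pt hn i) (pt hn j) x = x := fun i j =>
        swap_apply_of_ne_of_ne (hx i).symm (hx j).symm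
      simp [hs]
  let il : alternatingGroup (Fin n) →* Monoid.Coprod (alternatingGroup (Fin n)) ↥(SU 3 F q) :=
    Monoid.Coprod.inl
  let ic : ↥(SU 2 F q) →* Monoid.Coprod (alternatingGroup (Fin n)) ↥(SU 3 F q) :=
    (Monoid.Coprod.inr).comp (emb hF w01)
  let sw : ↥(SU 2 F q) →* ↥(SU 2 F q) := emb hF (swap (0 : Fin 2) 1).toEmbedding
  let comm : Monoid.Coprod (alternatingGroup (Fin n)) ↥(SU 3 F q) →
      Monoid.Coprod (alternatingGroup (Fin n)) ↥(SU 3 F q) →
      Monoid.Coprod (alternatingGroup (Fin n)) ↥(SU 3 F q) := fun x y => x * y * x⁻¹ * y⁻¹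
  let EL : List (Monoid.Coprod (alternatingGroup (Fin n)) ↥(SU 3 F q)) :=
    [Monoid.Coprod.inr (altToSU 3 F q cyc3) * (il (extAlt (e3 hn) cyc3))⁻¹] ++
    Z.map (fun a => comm (il a) (ic g₁)) ++ Z.map (fun a => comm (il a) (ic g₂)) ++
    [g₁, g₂].map (fun g => il e * ic g * (il e)⁻¹ * (ic (sw g))⁻¹) ++
    [(g₁, g₁), (g₂, g₂), (g₁, g₂)].map (fun p => comm (ic p.1) (il τ * ic p.2 * (il τ)⁻¹))
  refine (exists_pres_amalg RA eA RB eB EL (altToSU n F q) (emb hF (e3 hn)) ?_
    (model_surjective hF hn) ?_).imp fun R hR => ⟨hR.1.trans (by simp [EL]; omega), hR.2⟩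
  · -- the relations hold in the model
    have hcomm : ∀ (u v : ↥(SU n F q)), Commute u v → u * v * u⁻¹ * v⁻¹ = 1 := fun u v h => by
      rw [h.eq, mul_inv_cancel_right, mul_inv_cancel]
    have hcen : ∀ a ∈ Z, ∀ x, altToSU n F q a * emb hF (e3 hn) (emb hF w01 x) *
        (altToSU n F q a)⁻¹ = emb hF (e3 hn) (emb hF w01 x) := fun a ha x => by
      have h := model_corner hF hn a (Function.Embedding.refl (Fin 2)) (fun i => by
        fin_cases i
        · exact (hZfix a ha).1
        · exact (hZfix a ha).2) x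
      rwa [emb_refl] at h
    have hdis : ∀ x y, Commute (emb hF (e3 hn) (emb hF w01 x))
        (altToSU n F q τ * emb hF (e3 hn) (emb hF w01 y) * (altToSU n F q τ)⁻¹) := fun x y => by
      rw [emb_trans, emb_trans, altToSU_conj_emb]
      refine emb_commute hF _ _ (fun i j h => ?_) _ _
      have h' : (w01.trans (e3 hn)) i = τ.1 ((w01.trans (e3 hn)) j) := h
      rw [w01_e3 hn i, w01_e3 hn j, hτ] at h'
      have h'' := pt_inj hn h'
      clear h h'
      revert h''
      revert i j
      decide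
    intro w hw
    simp only [EL, List.mem_append, List.mem_singleton, List.mem_map] at hw
    rcases hw with (((rfl | ⟨a, ha, rfl⟩) | ⟨a, ha, rfl⟩) | ⟨g, -, rfl⟩) | ⟨p, -, rfl⟩ <;>
      simp only [il, ic, comm, MonoidHom.comp_apply, map_mul, map_inv, Monoid.Coprod.lift_apply_inl,
        Monoid.Coprod.lift_apply_inr]
    · rw [emb_altToSU hF, mul_inv_cancel]
    · exact hcomm _ _ (mul_inv_eq_iff_eq_mul.1 (hcen a ha g₁))
    · exact hcomm _ _ (mul_inv_eq_iff_eq_mul.1 (hcen a ha g₂))
    · rw [mul_inv_eq_one]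
      exact model_corner hF hn e _ (fun i => by
        fin_cases i
        · exact he0
        · exact he1) g
    · exact hcomm _ _ (hdis p.1 p.2)
  · -- the relations give a homomorphism
    intro G _ rho lam hrel
    let c : ↥(SU 2 F q) →* G := lam.comp (emb hF w01)
    have h0 := hrel (Monoid.Coprod.inr (altToSU 3 F q cyc3) * (il (extAlt (e3 hn) cyc3))⁻¹)
      (List.mem_append_left _ (List.mem_append_left _ (List.mem_append_left _
        (List.mem_append_left _ List.mem_cons_self))))
    have hcm : ∀ u v : G, u * v * u⁻¹ * v⁻¹ = 1 → Commute u v := fun u v h =>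
      mul_inv_eq_iff_eq_mul.1 (mul_inv_eq_one.1 h)
    have hZ1 : ∀ a ∈ Z, Commute (rho a) (c g₁) ∧ Commute (rho a) (c g₂) := fun a ha => by
      have ha1 := hrel (comm (il a) (ic g₁)) (List.mem_append_left _ (List.mem_append_left _
        (List.mem_append_left _ (List.mem_append_right _ (List.mem_map.2 ⟨a, ha, rfl⟩)))))
      have ha2 := hrel (comm (il a) (ic g₂)) (List.mem_append_left _ (List.mem_append_left _
        (List.mem_append_right _ (List.mem_map.2 ⟨a, ha, rfl⟩))))
      simp only [il, ic, comm, MonoidHom.comp_apply, map_mul, map_inv,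
        Monoid.Coprod.lift_apply_inl, Monoid.Coprod.lift_apply_inr] at ha1 ha2
      exact ⟨hcm _ _ ha1, hcm _ _ ha2⟩
    have hfl : ∀ g ∈ [g₁, g₂], rho e * c g * (rho e)⁻¹ = c (sw g) := fun g hg' => by
      have h := hrel (il e * ic g * (il e)⁻¹ * (ic (sw g))⁻¹)
        (List.mem_append_left _ (List.mem_append_right _ (List.mem_map.2 ⟨g, hg', rfl⟩)))
      simp only [il, ic, MonoidHom.comp_apply, map_mul, map_inv, Monoid.Coprod.lift_apply_inl,
        Monoid.Coprod.lift_apply_inr, mul_inv_eq_one] at h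
      exact h
    have hdj : ∀ p ∈ [(g₁, g₁), (g₂, g₂), (g₁, g₂)],
        Commute (c p.1) (rho τ * c p.2 * (rho τ)⁻¹) := fun p hp => by
      have h := hrel (comm (ic p.1) (il τ * ic p.2 * (il τ)⁻¹))
        (List.mem_append_right _ (List.mem_map.2 ⟨p, hp, rfl⟩))
      simp only [il, ic, comm, MonoidHom.comp_apply, map_mul, map_inv,
        Monoid.Coprod.lift_apply_inl, Monoid.Coprod.lift_apply_inr] at h
      exact hcm _ _ h
    have hflip : ∀ x, rho e * c x * (rho e)⁻¹ = c (sw x) := by
      refine DFunLike.congr_fun (f := (MulAut.conj (rho e)).toMonoidHom.comp c) (g := c.comp sw)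
        (MonoidHom.eq_of_eqOn_top ?_)
      rw [← hg]
      refine MonoidHom.eqOn_closure ?_
      rintro g (rfl | rfl)
      · exact hfl _ (by simp)
      · exact hfl _ (by simp)
    have hcentZ : ∀ a ∈ Z, ∀ x, Commute (rho a) (c x) := fun a ha x => by
      have hle : Subgroup.closure ({g₁, g₂} : Set ↥(SU 2 F q)) ≤
          (Subgroup.centralizer {rho a}).comap c := (Subgroup.closure_le _).2 (by
        rintro g (rfl | rfl)
        · exact Subgroup.mem_centralizer_singleton_iff.2 (hZ1 a ha).1.symm.eq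
        · exact Subgroup.mem_centralizer_singleton_iff.2 (hZ1 a ha).2.symm.eq)
      exact (Subgroup.mem_centralizer_singleton_iff.1 (hle (hg ▸ Subgroup.mem_top x)) :
        c x * rho a = rho a * c x).symm
    have D : Glue hF hn rho lam := by
      refine ⟨fun a => ?_, fun z z0 z1 x => ?_, ⟨e, he0, he1, hflip⟩,
        ⟨τ, (hτ 0).trans (by congr 1), (hτ 1).trans (by congr 1), ?_⟩⟩
      · simp only [il, map_mul, map_inv, Monoid.Coprod.lift_apply_inl,
          Monoid.Coprod.lift_apply_inr, mul_inv_eq_one] at h0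
        obtain ⟨i, rfl⟩ := eq_pow_cyc3 a
        simp only [map_pow, h0]
      · have hle : Subgroup.closure ({a | a ∈ Z} ∪ (fun a => e⁻¹ * a * e) '' {a | a ∈ Z}) ≤
            (Subgroup.centralizer {c x}).comap rho := (Subgroup.closure_le _).2 (by
          rintro a (ha | ⟨a, ha, rfl⟩)
          · exact Subgroup.mem_centralizer_singleton_iff.2 (hcentZ a ha x).eq
          · refine Subgroup.mem_centralizer_singleton_iff.2 ?_
            have h := (hcentZ a ha (sw x)).map (MulAut.conj (rho e)⁻¹).toMonoidHom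
            simp only [MulEquiv.toMonoidHom_eq_coe, MonoidHom.coe_coe, MulAut.conj_apply, inv_inv,
              ← hflip x] at h
            simp only [map_mul, map_inv]
            convert h.eq using 1 <;> group)
        exact Subgroup.mem_centralizer_singleton_iff.1 (hle (hZgen z z0 z1))
      · have hsym : Commute (c g₂) (rho τ * c g₁ * (rho τ)⁻¹) := by
          have h := (hdj (g₁, g₂) (by simp)).map (MulAut.conj (rho τ)).toMonoidHom
          have ht : rho τ * rho τ = 1 := by rw [← map_mul, hτ2, map_one]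
          have hti : (rho τ)⁻¹ = rho τ := inv_eq_of_mul_eq_one_right ht
          simp only [MulEquiv.toMonoidHom_eq_coe, MonoidHom.coe_coe, MulAut.conj_apply, hti] at h ⊢
          have h' : rho τ * (rho τ * c g₂ * rho τ) * rho τ = c g₂ := by
            rw [show rho τ * (rho τ * c g₂ * rho τ) * rho τ =
              (rho τ * rho τ) * c g₂ * (rho τ * rho τ) by group, ht, one_mul, mul_one]
          rw [h'] at h
          exact h.symm
        intro x y
        refine commute_of_gens hF c ((MulAut.conj (rho τ)).toMonoidHom.comp c) _ hg ?_ x y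
        rintro u (rfl | rfl) v (rfl | rfl)
        · exact hdj (_, _) (by simp)
        · exact hdj (_, _) (by simp)
        · exact hsym
        · exact hdj (_, _) (by simp)
    exact D.exists_lift hF fun V ha hb => hW V ha hb

/-- Six generators and at most `38` relations (`35` in degree four and five). -/
theorem sun_pres_six (hn : 4 ≤ n) (hW : WindowsExtend hF n)
    (RB : Finset (FreeGroup (Fin 3))) (hRB : RB.card ≤ 23)
    (eB : PresentedGroup (↑RB : Set (FreeGroup (Fin 3))) ≃* ↥(SU 3 F q))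
    (g₁ g₂ : ↥(SU 2 F q)) (hg : Subgroup.closure ({g₁, g₂} : Set ↥(SU 2 F q)) = ⊤) :
    ∃ R : Finset (FreeGroup (Fin 6)), (R.card ≤ 38 ∧ (n ≤ 5 → R.card ≤ 35)) ∧
      Nonempty (PresentedGroup (↑R : Set (FreeGroup (Fin 6))) ≃* ↥(SU n F q)) := by
  classical
  rcases (show n = 4 ∨ n = 5 ∨ 6 ≤ n by omega) with rfl | rfl | h6
  · obtain ⟨RA, hRA, ⟨eA⟩⟩ := alt_four_pres
    obtain ⟨e, he0, he1⟩ := exists_alt_two hn (pt_ne hn (show (1 : Fin 4) ≠ 0 by decide))
    obtain ⟨R, hR, ⟨eR⟩⟩ := sun_pres hF hn hW RA eA RB eB g₁ g₂ hg e he0 he1 [] (by simp)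
      fun z z0 z1 => by
        have key : ∀ z : alternatingGroup (Fin 4), z.1 0 = 0 → z.1 1 = 1 → z = 1 := by decide
        have hz : z = 1 := key z z0 z1
        exact hz ▸ Subgroup.one_mem _
    obtain ⟨R', hR', hR''⟩ := exists_pres_pad R eR
    simp only [List.length_nil] at hR
    exact ⟨R', ⟨by omega, fun _ => by omega⟩, hR''⟩
  · obtain ⟨RA, hRA, ⟨eA⟩⟩ := alt_five_pres
    obtain ⟨e, he0, he1⟩ := exists_alt_two hn (pt_ne hn (show (1 : Fin 4) ≠ 0 by decide))
    let a : alternatingGroup (Fin 5) := ⟨tri 2 3 4, sign_tri (by decide) (by decide)⟩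
    obtain ⟨R, hR, ⟨eR⟩⟩ := sun_pres hF hn hW RA eA RB eB g₁ g₂ hg e he0 he1 [a]
      (fun b hb => by
        obtain rfl := List.mem_singleton.1 hb
        exact ⟨tri_other (by simp [pt, Fin.ext_iff]) (by simp [pt, Fin.ext_iff])
          (by simp [pt, Fin.ext_iff]), tri_other (by simp [pt, Fin.ext_iff]) (by simp [pt, Fin.ext_iff])
          (by simp [pt, Fin.ext_iff])⟩)
      fun z z0 z1 => by
        have hle : altOn (upper 5) ≤ (Subgroup.closure {a}).map (alternatingGroup (Fin 5)).subtype := by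
          refine (altOn_le_closure (a := 2) (b := 3) (by simp [upper]) (by simp [upper])
            (by decide)).trans ((Subgroup.closure_le _).2 ?_)
          rintro _ ⟨i, hi, h2, h3, rfl⟩
          rw [mem_upper] at hi
          obtain rfl : i = 4 := by
            rw [Ne, Fin.ext_iff] at h2 h3
            exact Fin.ext (by simp at h2 h3 ⊢; omega)
          exact ⟨a, Subgroup.mem_closure_singleton_self a, rfl⟩
        obtain ⟨w, hw, hwz⟩ := hle (mem_altOn_upper hn z0 z1)
        rw [← Subtype.ext hwz]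
        exact Subgroup.closure_mono (by simp) hw
    obtain ⟨R', hR', hR''⟩ := exists_pres_pad R eR
    simp only [List.length_cons, List.length_nil] at hR
    exact ⟨R', ⟨by omega, fun _ => by omega⟩, hR''⟩
  · obtain ⟨RA, hRA, eA, -⟩ := (has37_all (show 5 ≤ n by omega)).2
    obtain ⟨a, e, ha, he0, he1, hgen⟩ := genPair h6
    obtain ⟨R, hR, hR'⟩ := sun_pres hF hn hW RA eA RB eB g₁ g₂ hg e he0 he1 [a]
      (fun b hb => by
        obtain rfl := List.mem_singleton.1 hb
        exact ⟨ha 0, ha 1⟩)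
      fun z z0 z1 => by
        have hle : Subgroup.closure {a.1, e.1⁻¹ * a.1 * e.1} ≤
            (Subgroup.closure ({a} ∪ {e⁻¹ * a * e} : Set (alternatingGroup (Fin n)))).map
              (alternatingGroup (Fin n)).subtype := (Subgroup.closure_le _).2 (by
          rintro x (rfl | rfl)
          · exact ⟨a, Subgroup.subset_closure (Or.inl rfl), rfl⟩
          · exact ⟨_, Subgroup.subset_closure (Or.inr rfl), rfl⟩)
        obtain ⟨w, hw, hwz⟩ := hle (hgen (mem_altOn_upper hn z0 z1))
        rw [← Subtype.ext hwz]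
        exact Subgroup.closure_mono (by simp) hw
    simp only [List.length_cons, List.length_nil] at hR
    exact ⟨R, ⟨by omega, fun h => by omega⟩, hR'⟩

end CfsgLib.SUPres77
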